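import Mathlib
import Cfsg.Agent.Lib.Helper56.TC
import Cfsg.Agent.Lib.Helper56.Fi24a.D
set_option autoImplicit false
set_option maxRecDepth 1000000

namespace Cfsg.Agent.Lib.Helper56.Fi24a

open Cfsg.Agent.Lib.Helper56.TC Cfsg.Agent.Lib.Helper56.TC.Tabs

theorem cN_240642 : allRange (fun x => forceN T.chkName x) 240642 382 = true := by decide +kernel
theorem cN_241024 : allRange (fun x => forceN T.chkName x) 241024 377 = true := by decide +kernel
theorem cN_241401 : allRange (fun x => forceN T.chkName x) 241401 373 = true := by decide +kernel
theorem cN_241774 : allRange (fun x => forceN T.chkName x) 241774 372 = true := by decide +kernel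
theorem cN_242146 : allRange (fun x => forceN T.chkName x) 242146 370 = true := by decide +kernel
theorem cN_242516 : allRange (fun x => forceN T.chkName x) 242516 369 = true := by decide +kernel

end Cfsg.Agent.Lib.Helper56.Fi24a
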