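import Mathlib
import Cfsg.Agent.Lib.Helper56.TC
import Cfsg.Agent.Lib.Helper56.Fi24a.D
set_option autoImplicit false
set_option maxRecDepth 1000000

namespace Cfsg.Agent.Lib.Helper56.Fi24a

open Cfsg.Agent.Lib.Helper56.TC Cfsg.Agent.Lib.Helper56.TC.Tabs

theorem cN_242885 : allRange (fun x => forceN T.chkName x) 242885 367 = true := by decide +kernel
theorem cN_243252 : allRange (fun x => forceN T.chkName x) 243252 370 = true := by decide +kernel
theorem cN_243622 : allRange (fun x => forceN T.chkName x) 243622 368 = true := by decide +kernel
theorem cN_243990 : allRange (fun x => forceN T.chkName x) 243990 368 = true := by decide +kernel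
theorem cN_244358 : allRange (fun x => forceN T.chkName x) 244358 365 = true := by decide +kernel
theorem cN_244723 : allRange (fun x => forceN T.chkName x) 244723 367 = true := by decide +kernel

end Cfsg.Agent.Lib.Helper56.Fi24a
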