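import Mathlib
import Cfsg.Agent.Lib.Helper56.TC
import Cfsg.Agent.Lib.Helper56.Fi24a.D
set_option autoImplicit false
set_option maxRecDepth 1000000

namespace Cfsg.Agent.Lib.Helper56.Fi24a

open Cfsg.Agent.Lib.Helper56.TC Cfsg.Agent.Lib.Helper56.TC.Tabs

theorem cN_245090 : allRange (fun x => forceN T.chkName x) 245090 378 = true := by decide +kernel
theorem cN_245468 : allRange (fun x => forceN T.chkName x) 245468 390 = true := by decide +kernel
theorem cN_245858 : allRange (fun x => forceN T.chkName x) 245858 393 = true := by decide +kernel
theorem cN_246251 : allRange (fun x => forceN T.chkName x) 246251 385 = true := by decide +kernel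
theorem cN_246636 : allRange (fun x => forceN T.chkName x) 246636 407 = true := by decide +kernel
theorem cN_247043 : allRange (fun x => forceN T.chkName x) 247043 406 = true := by decide +kernel

end Cfsg.Agent.Lib.Helper56.Fi24a
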