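import Mathlib
import Cfsg.Agent.Lib.Helper56.TC
import Cfsg.Agent.Lib.Helper56.Fi24a.D
set_option autoImplicit false
set_option maxRecDepth 1000000

namespace Cfsg.Agent.Lib.Helper56.Fi24a

open Cfsg.Agent.Lib.Helper56.TC Cfsg.Agent.Lib.Helper56.TC.Tabs

theorem cN_249869 : allRange (fun x => forceN T.chkName x) 249869 406 = true := by decide +kernel
theorem cN_250275 : allRange (fun x => forceN T.chkName x) 250275 402 = true := by decide +kernel
theorem cN_250677 : allRange (fun x => forceN T.chkName x) 250677 396 = true := by decide +kernel
theorem cN_251073 : allRange (fun x => forceN T.chkName x) 251073 395 = true := by decide +kernel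
theorem cN_251468 : allRange (fun x => forceN T.chkName x) 251468 396 = true := by decide +kernel
theorem cN_251864 : allRange (fun x => forceN T.chkName x) 251864 395 = true := by decide +kernel

end Cfsg.Agent.Lib.Helper56.Fi24a
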