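import Mathlib
import Cfsg.Agent.Lib.Helper56.TC
import Cfsg.Agent.Lib.Helper56.Fi24a.D
set_option autoImplicit false
set_option maxRecDepth 1000000

namespace Cfsg.Agent.Lib.Helper56.Fi24a

open Cfsg.Agent.Lib.Helper56.TC Cfsg.Agent.Lib.Helper56.TC.Tabs

theorem cN_256952 : allRange (fun x => forceN T.chkName x) 256952 373 = true := by decide +kernel
theorem cN_257325 : allRange (fun x => forceN T.chkName x) 257325 372 = true := by decide +kernel
theorem cN_257697 : allRange (fun x => forceN T.chkName x) 257697 374 = true := by decide +kernel
theorem cN_258071 : allRange (fun x => forceN T.chkName x) 258071 377 = true := by decide +kernel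
theorem cN_258448 : allRange (fun x => forceN T.chkName x) 258448 383 = true := by decide +kernel
theorem cN_258831 : allRange (fun x => forceN T.chkName x) 258831 388 = true := by decide +kernel

end Cfsg.Agent.Lib.Helper56.Fi24a
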