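import Mathlib
import Cfsg.Agent.Lib.Helper56.TC
import Cfsg.Agent.Lib.Helper56.Fi24a.D
set_option autoImplicit false
set_option maxRecDepth 1000000

namespace Cfsg.Agent.Lib.Helper56.Fi24a

open Cfsg.Agent.Lib.Helper56.TC Cfsg.Agent.Lib.Helper56.TC.Tabs

theorem cN_259219 : allRange (fun x => forceN T.chkName x) 259219 383 = true := by decide +kernel
theorem cN_259602 : allRange (fun x => forceN T.chkName x) 259602 377 = true := by decide +kernel
theorem cN_259979 : allRange (fun x => forceN T.chkName x) 259979 378 = true := by decide +kernel
theorem cN_260357 : allRange (fun x => forceN T.chkName x) 260357 379 = true := by decide +kernel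
theorem cN_260736 : allRange (fun x => forceN T.chkName x) 260736 378 = true := by decide +kernel
theorem cN_261114 : allRange (fun x => forceN T.chkName x) 261114 380 = true := by decide +kernel

end Cfsg.Agent.Lib.Helper56.Fi24a
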