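import Mathlib
import Cfsg.Agent.Lib.Helper56.TC
import Cfsg.Agent.Lib.Helper56.Fi24a.D
set_option autoImplicit false
set_option maxRecDepth 1000000

namespace Cfsg.Agent.Lib.Helper56.Fi24a

open Cfsg.Agent.Lib.Helper56.TC Cfsg.Agent.Lib.Helper56.TC.Tabs

theorem cN_265984 : allRange (fun x => forceN T.chkName x) 265984 365 = true := by decide +kernel
theorem cN_266349 : allRange (fun x => forceN T.chkName x) 266349 365 = true := by decide +kernel
theorem cN_266714 : allRange (fun x => forceN T.chkName x) 266714 364 = true := by decide +kernel
theorem cN_267078 : allRange (fun x => forceN T.chkName x) 267078 363 = true := by decide +kernel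
theorem cN_267441 : allRange (fun x => forceN T.chkName x) 267441 375 = true := by decide +kernel
theorem cN_267816 : allRange (fun x => forceN T.chkName x) 267816 394 = true := by decide +kernel

end Cfsg.Agent.Lib.Helper56.Fi24a
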