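import Mathlib
import Cfsg.Agent.Lib.Helper56.TC
import Cfsg.Agent.Lib.Helper56.Fi24a.D
set_option autoImplicit false
set_option maxRecDepth 1000000

namespace Cfsg.Agent.Lib.Helper56.Fi24a

open Cfsg.Agent.Lib.Helper56.TC Cfsg.Agent.Lib.Helper56.TC.Tabs

theorem cN_284406 : allRange (fun x => forceN T.chkName x) 284406 366 = true := by decide +kernel
theorem cN_284772 : allRange (fun x => forceN T.chkName x) 284772 389 = true := by decide +kernel
theorem cN_285161 : allRange (fun x => forceN T.chkName x) 285161 393 = true := by decide +kernel
theorem cN_285554 : allRange (fun x => forceN T.chkName x) 285554 380 = true := by decide +kernel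
theorem cN_285934 : allRange (fun x => forceN T.chkName x) 285934 408 = true := by decide +kernel
theorem cN_286342 : allRange (fun x => forceN T.chkName x) 286342 400 = true := by decide +kernel

end Cfsg.Agent.Lib.Helper56.Fi24a
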