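import Mathlib
import Cfsg.Agent.Lib.Helper56.TC
import Cfsg.Agent.Lib.Helper56.Fi24a.D
set_option autoImplicit false
set_option maxRecDepth 1000000

namespace Cfsg.Agent.Lib.Helper56.Fi24a

open Cfsg.Agent.Lib.Helper56.TC Cfsg.Agent.Lib.Helper56.TC.Tabs

theorem cN_289129 : allRange (fun x => forceN T.chkName x) 289129 395 = true := by decide +kernel
theorem cN_289524 : allRange (fun x => forceN T.chkName x) 289524 387 = true := by decide +kernel
theorem cN_289911 : allRange (fun x => forceN T.chkName x) 289911 387 = true := by decide +kernel
theorem cN_290298 : allRange (fun x => forceN T.chkName x) 290298 393 = true := by decide +kernel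
theorem cN_290691 : allRange (fun x => forceN T.chkName x) 290691 392 = true := by decide +kernel
theorem cN_291083 : allRange (fun x => forceN T.chkName x) 291083 396 = true := by decide +kernel

end Cfsg.Agent.Lib.Helper56.Fi24a
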