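import Mathlib
import Cfsg.Agent.Lib.Helper56.TC
import Cfsg.Agent.Lib.Helper56.Fi24a.D
set_option autoImplicit false
set_option maxRecDepth 1000000

namespace Cfsg.Agent.Lib.Helper56.Fi24a

open Cfsg.Agent.Lib.Helper56.TC Cfsg.Agent.Lib.Helper56.TC.Tabs

theorem cN_291479 : allRange (fun x => forceN T.chkName x) 291479 372 = true := by decide +kernel
theorem cN_291851 : allRange (fun x => forceN T.chkName x) 291851 358 = true := by decide +kernel
theorem cN_292209 : allRange (fun x => forceN T.chkName x) 292209 380 = true := by decide +kernel
theorem cN_292589 : allRange (fun x => forceN T.chkName x) 292589 373 = true := by decide +kernel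
theorem cN_292962 : allRange (fun x => forceN T.chkName x) 292962 370 = true := by decide +kernel
theorem cN_293332 : allRange (fun x => forceN T.chkName x) 293332 376 = true := by decide +kernel

end Cfsg.Agent.Lib.Helper56.Fi24a
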