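import Mathlib
import Cfsg.Agent.Lib.Helper56.TC
import Cfsg.Agent.Lib.Helper56.Fi24a.D
set_option autoImplicit false
set_option maxRecDepth 1000000

namespace Cfsg.Agent.Lib.Helper56.Fi24a

open Cfsg.Agent.Lib.Helper56.TC Cfsg.Agent.Lib.Helper56.TC.Tabs

theorem cN_298257 : allRange (fun x => forceN T.chkName x) 298257 393 = true := by decide +kernel
theorem cN_298650 : allRange (fun x => forceN T.chkName x) 298650 381 = true := by decide +kernel
theorem cN_299031 : allRange (fun x => forceN T.chkName x) 299031 386 = true := by decide +kernel
theorem cN_299417 : allRange (fun x => forceN T.chkName x) 299417 390 = true := by decide +kernel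
theorem cN_299807 : allRange (fun x => forceN T.chkName x) 299807 378 = true := by decide +kernel
theorem cN_300185 : allRange (fun x => forceN T.chkName x) 300185 361 = true := by decide +kernel

end Cfsg.Agent.Lib.Helper56.Fi24a
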