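import Mathlib
import Cfsg.Agent.Lib.Helper56.TC
import Cfsg.Agent.Lib.Helper56.Fi24a.D
set_option autoImplicit false
set_option maxRecDepth 1000000

namespace Cfsg.Agent.Lib.Helper56.Fi24a

open Cfsg.Agent.Lib.Helper56.TC Cfsg.Agent.Lib.Helper56.TC.Tabs

theorem cN_29766 : allRange (fun x => forceN T.chkName x) 29766 391 = true := by decide +kernel
theorem cN_30157 : allRange (fun x => forceN T.chkName x) 30157 394 = true := by decide +kernel
theorem cN_30551 : allRange (fun x => forceN T.chkName x) 30551 392 = true := by decide +kernel
theorem cN_30943 : allRange (fun x => forceN T.chkName x) 30943 391 = true := by decide +kernel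
theorem cN_31334 : allRange (fun x => forceN T.chkName x) 31334 389 = true := by decide +kernel
theorem cN_31723 : allRange (fun x => forceN T.chkName x) 31723 388 = true := by decide +kernel

end Cfsg.Agent.Lib.Helper56.Fi24a
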