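import Mathlib
import Cfsg.Agent.Lib.Helper56.TC
import Cfsg.Agent.Lib.Helper56.Fi24a.D
set_option autoImplicit false
set_option maxRecDepth 1000000

namespace Cfsg.Agent.Lib.Helper56.Fi24a

open Cfsg.Agent.Lib.Helper56.TC Cfsg.Agent.Lib.Helper56.TC.Tabs

theorem cN_307469 : allRange (fun x => forceN T.chkName x) 307469 498 = true := by decide +kernel
theorem cN_307967 : allRange (fun x => forceN T.chkName x) 307967 512 = true := by decide +kernel
theorem cN_308479 : allRange (fun x => forceN T.chkName x) 308479 477 = true := by decide +kernel
theorem cN_308956 : allRange (fun x => forceN T.chkName x) 308956 481 = true := by decide +kernel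
theorem cN_309437 : allRange (fun x => forceN T.chkName x) 309437 474 = true := by decide +kernel
theorem cN_309911 : allRange (fun x => forceN T.chkName x) 309911 477 = true := by decide +kernel

end Cfsg.Agent.Lib.Helper56.Fi24a
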