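import Mathlib
import Cfsg.Agent.Lib.Helper56.TC
import Cfsg.Agent.Lib.Helper56.Fi24a.D
set_option autoImplicit false
set_option maxRecDepth 1000000

namespace Cfsg.Agent.Lib.Helper56.Fi24a

open Cfsg.Agent.Lib.Helper56.TC Cfsg.Agent.Lib.Helper56.TC.Tabs

theorem cN_310388 : allRange (fun x => forceN T.chkName x) 310388 480 = true := by decide +kernel
theorem cN_310868 : allRange (fun x => forceN T.chkName x) 310868 475 = true := by decide +kernel
theorem cN_311343 : allRange (fun x => forceN T.chkName x) 311343 480 = true := by decide +kernel
theorem cN_311823 : allRange (fun x => forceN T.chkName x) 311823 479 = true := by decide +kernel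
theorem cN_312302 : allRange (fun x => forceN T.chkName x) 312302 482 = true := by decide +kernel
theorem cN_312784 : allRange (fun x => forceN T.chkName x) 312784 479 = true := by decide +kernel

end Cfsg.Agent.Lib.Helper56.Fi24a
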