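import Mathlib
import Cfsg.Agent.Lib.Helper56.TC
import Cfsg.Agent.Lib.Helper56.Fi24a.D
set_option autoImplicit false
set_option maxRecDepth 1000000

namespace Cfsg.Agent.Lib.Helper56.Fi24a

open Cfsg.Agent.Lib.Helper56.TC Cfsg.Agent.Lib.Helper56.TC.Tabs

theorem cN_313263 : allRange (fun x => forceN T.chkName x) 313263 469 = true := by decide +kernel
theorem cN_313732 : allRange (fun x => forceN T.chkName x) 313732 484 = true := by decide +kernel
theorem cN_314216 : allRange (fun x => forceN T.chkName x) 314216 473 = true := by decide +kernel
theorem cN_314689 : allRange (fun x => forceN T.chkName x) 314689 477 = true := by decide +kernel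
theorem cN_315166 : allRange (fun x => forceN T.chkName x) 315166 487 = true := by decide +kernel
theorem cN_315653 : allRange (fun x => forceN T.chkName x) 315653 480 = true := by decide +kernel

end Cfsg.Agent.Lib.Helper56.Fi24a
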