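import Mathlib
import Cfsg.Agent.Lib.Helper56.TC
import Cfsg.Agent.Lib.Helper56.Fi24a.D
set_option autoImplicit false
set_option maxRecDepth 1000000

namespace Cfsg.Agent.Lib.Helper56.Fi24a

open Cfsg.Agent.Lib.Helper56.TC Cfsg.Agent.Lib.Helper56.TC.Tabs

theorem cN_316133 : allRange (fun x => forceN T.chkName x) 316133 485 = true := by decide +kernel
theorem cN_316618 : allRange (fun x => forceN T.chkName x) 316618 482 = true := by decide +kernel
theorem cN_317100 : allRange (fun x => forceN T.chkName x) 317100 468 = true := by decide +kernel
theorem cN_317568 : allRange (fun x => forceN T.chkName x) 317568 489 = true := by decide +kernel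
theorem cN_318057 : allRange (fun x => forceN T.chkName x) 318057 484 = true := by decide +kernel
theorem cN_318541 : allRange (fun x => forceN T.chkName x) 318541 473 = true := by decide +kernel

end Cfsg.Agent.Lib.Helper56.Fi24a
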