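import Mathlib
import Cfsg.Agent.Lib.Helper56.TC
import Cfsg.Agent.Lib.Helper56.Fi24a.D
set_option autoImplicit false
set_option maxRecDepth 1000000

namespace Cfsg.Agent.Lib.Helper56.Fi24a

open Cfsg.Agent.Lib.Helper56.TC Cfsg.Agent.Lib.Helper56.TC.Tabs

theorem cN_319014 : allRange (fun x => forceN T.chkName x) 319014 467 = true := by decide +kernel
theorem cN_319481 : allRange (fun x => forceN T.chkName x) 319481 498 = true := by decide +kernel
theorem cN_319979 : allRange (fun x => forceN T.chkName x) 319979 490 = true := by decide +kernel
theorem cN_320469 : allRange (fun x => forceN T.chkName x) 320469 486 = true := by decide +kernel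
theorem cN_320955 : allRange (fun x => forceN T.chkName x) 320955 490 = true := by decide +kernel
theorem cN_321445 : allRange (fun x => forceN T.chkName x) 321445 489 = true := by decide +kernel

end Cfsg.Agent.Lib.Helper56.Fi24a
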