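import Mathlib
import Cfsg.Agent.Lib.Helper56.TC
import Cfsg.Agent.Lib.Helper56.Fi24a.D
set_option autoImplicit false
set_option maxRecDepth 1000000

namespace Cfsg.Agent.Lib.Helper56.Fi24a

open Cfsg.Agent.Lib.Helper56.TC Cfsg.Agent.Lib.Helper56.TC.Tabs

theorem cN_321934 : allRange (fun x => forceN T.chkName x) 321934 484 = true := by decide +kernel
theorem cN_322418 : allRange (fun x => forceN T.chkName x) 322418 477 = true := by decide +kernel
theorem cN_322895 : allRange (fun x => forceN T.chkName x) 322895 484 = true := by decide +kernel
theorem cN_323379 : allRange (fun x => forceN T.chkName x) 323379 495 = true := by decide +kernel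
theorem cN_323874 : allRange (fun x => forceN T.chkName x) 323874 486 = true := by decide +kernel
theorem cN_324360 : allRange (fun x => forceN T.chkName x) 324360 481 = true := by decide +kernel

end Cfsg.Agent.Lib.Helper56.Fi24a
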