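import Mathlib
import Cfsg.Agent.Lib.Helper56.TC
import Cfsg.Agent.Lib.Helper56.Fi24a.D
set_option autoImplicit false
set_option maxRecDepth 1000000

namespace Cfsg.Agent.Lib.Helper56.Fi24a

open Cfsg.Agent.Lib.Helper56.TC Cfsg.Agent.Lib.Helper56.TC.Tabs

theorem cN_324841 : allRange (fun x => forceN T.chkName x) 324841 477 = true := by decide +kernel
theorem cN_325318 : allRange (fun x => forceN T.chkName x) 325318 473 = true := by decide +kernel
theorem cN_325791 : allRange (fun x => forceN T.chkName x) 325791 497 = true := by decide +kernel
theorem cN_326288 : allRange (fun x => forceN T.chkName x) 326288 497 = true := by decide +kernel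
theorem cN_326785 : allRange (fun x => forceN T.chkName x) 326785 494 = true := by decide +kernel
theorem cN_327279 : allRange (fun x => forceN T.chkName x) 327279 495 = true := by decide +kernel

end Cfsg.Agent.Lib.Helper56.Fi24a
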