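import Mathlib
import Cfsg.Agent.Lib.Helper56.TC
import Cfsg.Agent.Lib.Helper56.Fi24a.D
set_option autoImplicit false
set_option maxRecDepth 1000000

namespace Cfsg.Agent.Lib.Helper56.Fi24a

open Cfsg.Agent.Lib.Helper56.TC Cfsg.Agent.Lib.Helper56.TC.Tabs

theorem cN_32111 : allRange (fun x => forceN T.chkName x) 32111 388 = true := by decide +kernel
theorem cN_32499 : allRange (fun x => forceN T.chkName x) 32499 380 = true := by decide +kernel
theorem cN_32879 : allRange (fun x => forceN T.chkName x) 32879 379 = true := by decide +kernel
theorem cN_33258 : allRange (fun x => forceN T.chkName x) 33258 382 = true := by decide +kernel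
theorem cN_33640 : allRange (fun x => forceN T.chkName x) 33640 384 = true := by decide +kernel
theorem cN_34024 : allRange (fun x => forceN T.chkName x) 34024 385 = true := by decide +kernel

end Cfsg.Agent.Lib.Helper56.Fi24a
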