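import Mathlib
import Cfsg.Agent.Lib.Helper56.TC
import Cfsg.Agent.Lib.Helper56.Fi24a.D
set_option autoImplicit false
set_option maxRecDepth 1000000

namespace Cfsg.Agent.Lib.Helper56.Fi24a

open Cfsg.Agent.Lib.Helper56.TC Cfsg.Agent.Lib.Helper56.TC.Tabs

theorem cN_327774 : allRange (fun x => forceN T.chkName x) 327774 498 = true := by decide +kernel
theorem cN_328272 : allRange (fun x => forceN T.chkName x) 328272 496 = true := by decide +kernel
theorem cN_328768 : allRange (fun x => forceN T.chkName x) 328768 492 = true := by decide +kernel
theorem cN_329260 : allRange (fun x => forceN T.chkName x) 329260 492 = true := by decide +kernel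
theorem cN_329752 : allRange (fun x => forceN T.chkName x) 329752 493 = true := by decide +kernel
theorem cN_330245 : allRange (fun x => forceN T.chkName x) 330245 485 = true := by decide +kernel

end Cfsg.Agent.Lib.Helper56.Fi24a
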