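import Mathlib
import Cfsg.Agent.Lib.Helper56.TC
import Cfsg.Agent.Lib.Helper56.Fi24a.D
set_option autoImplicit false
set_option maxRecDepth 1000000

namespace Cfsg.Agent.Lib.Helper56.Fi24a

open Cfsg.Agent.Lib.Helper56.TC Cfsg.Agent.Lib.Helper56.TC.Tabs

theorem cN_330730 : allRange (fun x => forceN T.chkName x) 330730 495 = true := by decide +kernel
theorem cN_331225 : allRange (fun x => forceN T.chkName x) 331225 496 = true := by decide +kernel
theorem cN_331721 : allRange (fun x => forceN T.chkName x) 331721 490 = true := by decide +kernel
theorem cN_332211 : allRange (fun x => forceN T.chkName x) 332211 489 = true := by decide +kernel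
theorem cN_332700 : allRange (fun x => forceN T.chkName x) 332700 490 = true := by decide +kernel
theorem cN_333190 : allRange (fun x => forceN T.chkName x) 333190 483 = true := by decide +kernel

end Cfsg.Agent.Lib.Helper56.Fi24a
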