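import Mathlib
import Cfsg.Agent.Lib.Helper56.TC
import Cfsg.Agent.Lib.Helper56.Fi24a.D
set_option autoImplicit false
set_option maxRecDepth 1000000

namespace Cfsg.Agent.Lib.Helper56.Fi24a

open Cfsg.Agent.Lib.Helper56.TC Cfsg.Agent.Lib.Helper56.TC.Tabs

theorem cN_333673 : allRange (fun x => forceN T.chkName x) 333673 489 = true := by decide +kernel
theorem cN_334162 : allRange (fun x => forceN T.chkName x) 334162 497 = true := by decide +kernel
theorem cN_334659 : allRange (fun x => forceN T.chkName x) 334659 499 = true := by decide +kernel
theorem cN_335158 : allRange (fun x => forceN T.chkName x) 335158 498 = true := by decide +kernel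
theorem cN_335656 : allRange (fun x => forceN T.chkName x) 335656 500 = true := by decide +kernel
theorem cN_336156 : allRange (fun x => forceN T.chkName x) 336156 508 = true := by decide +kernel

end Cfsg.Agent.Lib.Helper56.Fi24a
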