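import Mathlib
import Cfsg.Agent.Lib.Helper56.TC
import Cfsg.Agent.Lib.Helper56.Fi24a.D
set_option autoImplicit false
set_option maxRecDepth 1000000

namespace Cfsg.Agent.Lib.Helper56.Fi24a

open Cfsg.Agent.Lib.Helper56.TC Cfsg.Agent.Lib.Helper56.TC.Tabs

theorem cN_336664 : allRange (fun x => forceN T.chkName x) 336664 530 = true := by decide +kernel
theorem cN_337194 : allRange (fun x => forceN T.chkName x) 337194 528 = true := by decide +kernel
theorem cN_337722 : allRange (fun x => forceN T.chkName x) 337722 529 = true := by decide +kernel
theorem cN_338251 : allRange (fun x => forceN T.chkName x) 338251 528 = true := by decide +kernel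
theorem cN_338779 : allRange (fun x => forceN T.chkName x) 338779 527 = true := by decide +kernel
theorem cN_339306 : allRange (fun x => forceN T.chkName x) 339306 525 = true := by decide +kernel

end Cfsg.Agent.Lib.Helper56.Fi24a
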