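import Mathlib
import Cfsg.Agent.Lib.Helper56.TC
import Cfsg.Agent.Lib.Helper56.Fi24a.D
set_option autoImplicit false
set_option maxRecDepth 1000000

namespace Cfsg.Agent.Lib.Helper56.Fi24a

open Cfsg.Agent.Lib.Helper56.TC Cfsg.Agent.Lib.Helper56.TC.Tabs

theorem cN_339831 : allRange (fun x => forceN T.chkName x) 339831 531 = true := by decide +kernel
theorem cN_340362 : allRange (fun x => forceN T.chkName x) 340362 530 = true := by decide +kernel
theorem cN_340892 : allRange (fun x => forceN T.chkName x) 340892 529 = true := by decide +kernel
theorem cN_341421 : allRange (fun x => forceN T.chkName x) 341421 530 = true := by decide +kernel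
theorem cN_341951 : allRange (fun x => forceN T.chkName x) 341951 529 = true := by decide +kernel
theorem cN_342480 : allRange (fun x => forceN T.chkName x) 342480 527 = true := by decide +kernel

end Cfsg.Agent.Lib.Helper56.Fi24a
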