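import Mathlib
import Cfsg.Agent.Lib.Helper56.TC
import Cfsg.Agent.Lib.Helper56.Fi24a.D
set_option autoImplicit false
set_option maxRecDepth 1000000

namespace Cfsg.Agent.Lib.Helper56.Fi24a

open Cfsg.Agent.Lib.Helper56.TC Cfsg.Agent.Lib.Helper56.TC.Tabs

theorem cV_21060 : allRange (fun x => forceN T.chkV x) 21060 234 = true := by decide +kernel
theorem cV_21294 : allRange (fun x => forceN T.chkV x) 21294 234 = true := by decide +kernel
theorem cV_21528 : allRange (fun x => forceN T.chkV x) 21528 234 = true := by decide +kernel
theorem cV_21762 : allRange (fun x => forceN T.chkV x) 21762 234 = true := by decide +kernel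
theorem cV_21996 : allRange (fun x => forceN T.chkV x) 21996 234 = true := by decide +kernel
theorem cV_22230 : allRange (fun x => forceN T.chkV x) 22230 234 = true := by decide +kernel

end Cfsg.Agent.Lib.Helper56.Fi24a
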