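import Mathlib
import Cfsg.Agent.Lib.Helper56.TC
import Cfsg.Agent.Lib.Helper56.Fi24a.D
set_option autoImplicit false
set_option maxRecDepth 1000000

namespace Cfsg.Agent.Lib.Helper56.Fi24a

open Cfsg.Agent.Lib.Helper56.TC Cfsg.Agent.Lib.Helper56.TC.Tabs

theorem cN_41353 : allRange (fun x => forceN T.chkName x) 41353 380 = true := by decide +kernel
theorem cN_41733 : allRange (fun x => forceN T.chkName x) 41733 379 = true := by decide +kernel
theorem cN_42112 : allRange (fun x => forceN T.chkName x) 42112 382 = true := by decide +kernel
theorem cN_42494 : allRange (fun x => forceN T.chkName x) 42494 383 = true := by decide +kernel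
theorem cN_42877 : allRange (fun x => forceN T.chkName x) 42877 384 = true := by decide +kernel
theorem cN_43261 : allRange (fun x => forceN T.chkName x) 43261 384 = true := by decide +kernel

end Cfsg.Agent.Lib.Helper56.Fi24a
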