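import Mathlib
import Cfsg.Agent.Lib.Helper56.TC
import Cfsg.Agent.Lib.Helper56.Fi24a.D
set_option autoImplicit false
set_option maxRecDepth 1000000

namespace Cfsg.Agent.Lib.Helper56.Fi24a

open Cfsg.Agent.Lib.Helper56.TC Cfsg.Agent.Lib.Helper56.TC.Tabs

theorem cN_4519 : allRange (fun x => forceN T.chkName x) 4519 384 = true := by decide +kernel
theorem cN_4903 : allRange (fun x => forceN T.chkName x) 4903 383 = true := by decide +kernel
theorem cN_5286 : allRange (fun x => forceN T.chkName x) 5286 379 = true := by decide +kernel
theorem cN_5665 : allRange (fun x => forceN T.chkName x) 5665 376 = true := by decide +kernel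
theorem cN_6041 : allRange (fun x => forceN T.chkName x) 6041 382 = true := by decide +kernel
theorem cN_6423 : allRange (fun x => forceN T.chkName x) 6423 386 = true := by decide +kernel

end Cfsg.Agent.Lib.Helper56.Fi24a
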