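import Mathlib
import Cfsg.Agent.Lib.Helper56.TC
import Cfsg.Agent.Lib.Helper56.Fi24a.D
set_option autoImplicit false
set_option maxRecDepth 1000000

namespace Cfsg.Agent.Lib.Helper56.Fi24a

open Cfsg.Agent.Lib.Helper56.TC Cfsg.Agent.Lib.Helper56.TC.Tabs

theorem cV_82836 : allRange (fun x => forceN T.chkV x) 82836 234 = true := by decide +kernel
theorem cV_83070 : allRange (fun x => forceN T.chkV x) 83070 234 = true := by decide +kernel
theorem cV_83304 : allRange (fun x => forceN T.chkV x) 83304 234 = true := by decide +kernel
theorem cV_83538 : allRange (fun x => forceN T.chkV x) 83538 234 = true := by decide +kernel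
theorem cV_83772 : allRange (fun x => forceN T.chkV x) 83772 234 = true := by decide +kernel
theorem cV_84006 : allRange (fun x => forceN T.chkV x) 84006 234 = true := by decide +kernel

end Cfsg.Agent.Lib.Helper56.Fi24a
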