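import Mathlib
import Cfsg.Agent.Lib.Helper56.TC
import Cfsg.Agent.Lib.Helper56.Fi24a.D
set_option autoImplicit false
set_option maxRecDepth 1000000

namespace Cfsg.Agent.Lib.Helper56.Fi24a

open Cfsg.Agent.Lib.Helper56.TC Cfsg.Agent.Lib.Helper56.TC.Tabs

theorem cN_48233 : allRange (fun x => forceN T.chkName x) 48233 391 = true := by decide +kernel
theorem cN_48624 : allRange (fun x => forceN T.chkName x) 48624 397 = true := by decide +kernel
theorem cN_49021 : allRange (fun x => forceN T.chkName x) 49021 392 = true := by decide +kernel
theorem cN_49413 : allRange (fun x => forceN T.chkName x) 49413 394 = true := by decide +kernel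
theorem cN_49807 : allRange (fun x => forceN T.chkName x) 49807 395 = true := by decide +kernel
theorem cN_50202 : allRange (fun x => forceN T.chkName x) 50202 388 = true := by decide +kernel

end Cfsg.Agent.Lib.Helper56.Fi24a
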