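import Mathlib
import Cfsg.Agent.Lib.Helper56.TC
import Cfsg.Agent.Lib.Helper56.Fi24a.D
set_option autoImplicit false
set_option maxRecDepth 1000000

namespace Cfsg.Agent.Lib.Helper56.Fi24a

open Cfsg.Agent.Lib.Helper56.TC Cfsg.Agent.Lib.Helper56.TC.Tabs

theorem cV_92664 : allRange (fun x => forceN T.chkV x) 92664 234 = true := by decide +kernel
theorem cV_92898 : allRange (fun x => forceN T.chkV x) 92898 234 = true := by decide +kernel
theorem cV_93132 : allRange (fun x => forceN T.chkV x) 93132 234 = true := by decide +kernel
theorem cV_93366 : allRange (fun x => forceN T.chkV x) 93366 234 = true := by decide +kernel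
theorem cV_93600 : allRange (fun x => forceN T.chkV x) 93600 234 = true := by decide +kernel
theorem cV_93834 : allRange (fun x => forceN T.chkV x) 93834 234 = true := by decide +kernel

end Cfsg.Agent.Lib.Helper56.Fi24a
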