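import Mathlib
import Cfsg.Agent.Lib.Helper56.TC
import Cfsg.Agent.Lib.Helper56.Fi24a.D
set_option autoImplicit false
set_option maxRecDepth 1000000

namespace Cfsg.Agent.Lib.Helper56.Fi24a

open Cfsg.Agent.Lib.Helper56.TC Cfsg.Agent.Lib.Helper56.TC.Tabs

theorem cV_113724 : allRange (fun x => forceN T.chkV x) 113724 234 = true := by decide +kernel
theorem cV_113958 : allRange (fun x => forceN T.chkV x) 113958 234 = true := by decide +kernel
theorem cV_114192 : allRange (fun x => forceN T.chkV x) 114192 234 = true := by decide +kernel
theorem cV_114426 : allRange (fun x => forceN T.chkV x) 114426 234 = true := by decide +kernel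
theorem cV_114660 : allRange (fun x => forceN T.chkV x) 114660 234 = true := by decide +kernel
theorem cV_114894 : allRange (fun x => forceN T.chkV x) 114894 234 = true := by decide +kernel

end Cfsg.Agent.Lib.Helper56.Fi24a
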