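import Mathlib
import Cfsg.Agent.Lib.Helper56.TC
import Cfsg.Agent.Lib.Helper56.Fi24a.D
set_option autoImplicit false
set_option maxRecDepth 1000000

namespace Cfsg.Agent.Lib.Helper56.Fi24a

open Cfsg.Agent.Lib.Helper56.TC Cfsg.Agent.Lib.Helper56.TC.Tabs

theorem cV_116532 : allRange (fun x => forceN T.chkV x) 116532 234 = true := by decide +kernel
theorem cV_116766 : allRange (fun x => forceN T.chkV x) 116766 234 = true := by decide +kernel
theorem cV_117000 : allRange (fun x => forceN T.chkV x) 117000 234 = true := by decide +kernel
theorem cV_117234 : allRange (fun x => forceN T.chkV x) 117234 234 = true := by decide +kernel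
theorem cV_117468 : allRange (fun x => forceN T.chkV x) 117468 234 = true := by decide +kernel
theorem cV_117702 : allRange (fun x => forceN T.chkV x) 117702 234 = true := by decide +kernel

end Cfsg.Agent.Lib.Helper56.Fi24a
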