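import Mathlib
import Cfsg.Agent.Lib.Helper56.TC
import Cfsg.Agent.Lib.Helper56.Fi24a.D
set_option autoImplicit false
set_option maxRecDepth 1000000

namespace Cfsg.Agent.Lib.Helper56.Fi24a

open Cfsg.Agent.Lib.Helper56.TC Cfsg.Agent.Lib.Helper56.TC.Tabs

theorem cV_119340 : allRange (fun x => forceN T.chkV x) 119340 234 = true := by decide +kernel
theorem cV_119574 : allRange (fun x => forceN T.chkV x) 119574 234 = true := by decide +kernel
theorem cV_119808 : allRange (fun x => forceN T.chkV x) 119808 234 = true := by decide +kernel
theorem cV_120042 : allRange (fun x => forceN T.chkV x) 120042 234 = true := by decide +kernel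
theorem cV_120276 : allRange (fun x => forceN T.chkV x) 120276 234 = true := by decide +kernel
theorem cV_120510 : allRange (fun x => forceN T.chkV x) 120510 234 = true := by decide +kernel

end Cfsg.Agent.Lib.Helper56.Fi24a
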