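import Mathlib
import Cfsg.Agent.Lib.Helper56.TC
import Cfsg.Agent.Lib.Helper56.Fi24a.D
set_option autoImplicit false
set_option maxRecDepth 1000000

namespace Cfsg.Agent.Lib.Helper56.Fi24a

open Cfsg.Agent.Lib.Helper56.TC Cfsg.Agent.Lib.Helper56.TC.Tabs

theorem cN_55195 : allRange (fun x => forceN T.chkName x) 55195 384 = true := by decide +kernel
theorem cN_55579 : allRange (fun x => forceN T.chkName x) 55579 376 = true := by decide +kernel
theorem cN_55955 : allRange (fun x => forceN T.chkName x) 55955 381 = true := by decide +kernel
theorem cN_56336 : allRange (fun x => forceN T.chkName x) 56336 383 = true := by decide +kernel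
theorem cN_56719 : allRange (fun x => forceN T.chkName x) 56719 380 = true := by decide +kernel
theorem cN_57099 : allRange (fun x => forceN T.chkName x) 57099 375 = true := by decide +kernel

end Cfsg.Agent.Lib.Helper56.Fi24a
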