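import Mathlib
import Cfsg.Agent.Lib.Helper56.TC
import Cfsg.Agent.Lib.Helper56.Fi24a.D
set_option autoImplicit false
set_option maxRecDepth 1000000

namespace Cfsg.Agent.Lib.Helper56.Fi24a

open Cfsg.Agent.Lib.Helper56.TC Cfsg.Agent.Lib.Helper56.TC.Tabs

theorem cV_158652 : allRange (fun x => forceN T.chkV x) 158652 234 = true := by decide +kernel
theorem cV_158886 : allRange (fun x => forceN T.chkV x) 158886 234 = true := by decide +kernel
theorem cV_159120 : allRange (fun x => forceN T.chkV x) 159120 234 = true := by decide +kernel
theorem cV_159354 : allRange (fun x => forceN T.chkV x) 159354 234 = true := by decide +kernel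
theorem cV_159588 : allRange (fun x => forceN T.chkV x) 159588 234 = true := by decide +kernel
theorem cV_159822 : allRange (fun x => forceN T.chkV x) 159822 234 = true := by decide +kernel

end Cfsg.Agent.Lib.Helper56.Fi24a
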