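import Mathlib
import Cfsg.Agent.Lib.Helper56.TC
import Cfsg.Agent.Lib.Helper56.Fi24a.D
set_option autoImplicit false
set_option maxRecDepth 1000000

namespace Cfsg.Agent.Lib.Helper56.Fi24a

open Cfsg.Agent.Lib.Helper56.TC Cfsg.Agent.Lib.Helper56.TC.Tabs

theorem cV_167076 : allRange (fun x => forceN T.chkV x) 167076 234 = true := by decide +kernel
theorem cV_167310 : allRange (fun x => forceN T.chkV x) 167310 234 = true := by decide +kernel
theorem cV_167544 : allRange (fun x => forceN T.chkV x) 167544 234 = true := by decide +kernel
theorem cV_167778 : allRange (fun x => forceN T.chkV x) 167778 234 = true := by decide +kernel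
theorem cV_168012 : allRange (fun x => forceN T.chkV x) 168012 234 = true := by decide +kernel
theorem cV_168246 : allRange (fun x => forceN T.chkV x) 168246 234 = true := by decide +kernel

end Cfsg.Agent.Lib.Helper56.Fi24a
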