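import Mathlib
import Cfsg.Agent.Lib.Helper56.TC
import Cfsg.Agent.Lib.Helper56.Fi24a.D
set_option autoImplicit false
set_option maxRecDepth 1000000

namespace Cfsg.Agent.Lib.Helper56.Fi24a

open Cfsg.Agent.Lib.Helper56.TC Cfsg.Agent.Lib.Helper56.TC.Tabs

theorem cV_275184 : allRange (fun x => forceN T.chkV x) 275184 234 = true := by decide +kernel
theorem cV_275418 : allRange (fun x => forceN T.chkV x) 275418 234 = true := by decide +kernel
theorem cV_275652 : allRange (fun x => forceN T.chkV x) 275652 234 = true := by decide +kernel
theorem cV_275886 : allRange (fun x => forceN T.chkV x) 275886 234 = true := by decide +kernel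
theorem cV_276120 : allRange (fun x => forceN T.chkV x) 276120 234 = true := by decide +kernel
theorem cV_276354 : allRange (fun x => forceN T.chkV x) 276354 234 = true := by decide +kernel

end Cfsg.Agent.Lib.Helper56.Fi24a
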