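import Mathlib
import Cfsg.Agent.Lib.Helper56.TC
import Cfsg.Agent.Lib.Helper56.Fi24a.D
set_option autoImplicit false
set_option maxRecDepth 1000000

namespace Cfsg.Agent.Lib.Helper56.Fi24a

open Cfsg.Agent.Lib.Helper56.TC Cfsg.Agent.Lib.Helper56.TC.Tabs

theorem cN_85214 : allRange (fun x => forceN T.chkName x) 85214 382 = true := by decide +kernel
theorem cN_85596 : allRange (fun x => forceN T.chkName x) 85596 380 = true := by decide +kernel
theorem cN_85976 : allRange (fun x => forceN T.chkName x) 85976 376 = true := by decide +kernel
theorem cN_86352 : allRange (fun x => forceN T.chkName x) 86352 372 = true := by decide +kernel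
theorem cN_86724 : allRange (fun x => forceN T.chkName x) 86724 375 = true := by decide +kernel
theorem cN_87099 : allRange (fun x => forceN T.chkName x) 87099 369 = true := by decide +kernel

end Cfsg.Agent.Lib.Helper56.Fi24a
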