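import Mathlib
import Cfsg.Agent.Lib.Helper56.TC
import Cfsg.Agent.Lib.Helper56.Fi24a.D
set_option autoImplicit false
set_option maxRecDepth 1000000

namespace Cfsg.Agent.Lib.Helper56.Fi24a

open Cfsg.Agent.Lib.Helper56.TC Cfsg.Agent.Lib.Helper56.TC.Tabs

theorem cN_89759 : allRange (fun x => forceN T.chkName x) 89759 385 = true := by decide +kernel
theorem cN_90144 : allRange (fun x => forceN T.chkName x) 90144 383 = true := by decide +kernel
theorem cN_90527 : allRange (fun x => forceN T.chkName x) 90527 400 = true := by decide +kernel
theorem cN_90927 : allRange (fun x => forceN T.chkName x) 90927 399 = true := by decide +kernel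
theorem cN_91326 : allRange (fun x => forceN T.chkName x) 91326 393 = true := by decide +kernel
theorem cN_91719 : allRange (fun x => forceN T.chkName x) 91719 398 = true := by decide +kernel

end Cfsg.Agent.Lib.Helper56.Fi24a
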