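import Mathlib
import Cfsg.Agent.Lib.Helper56.TC
import Cfsg.Agent.Lib.Helper56.Fi24a.D
set_option autoImplicit false
set_option maxRecDepth 1000000

namespace Cfsg.Agent.Lib.Helper56.Fi24a

open Cfsg.Agent.Lib.Helper56.TC Cfsg.Agent.Lib.Helper56.TC.Tabs

theorem cN_92117 : allRange (fun x => forceN T.chkName x) 92117 401 = true := by decide +kernel
theorem cN_92518 : allRange (fun x => forceN T.chkName x) 92518 396 = true := by decide +kernel
theorem cN_92914 : allRange (fun x => forceN T.chkName x) 92914 395 = true := by decide +kernel
theorem cN_93309 : allRange (fun x => forceN T.chkName x) 93309 396 = true := by decide +kernel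
theorem cN_93705 : allRange (fun x => forceN T.chkName x) 93705 398 = true := by decide +kernel
theorem cN_94103 : allRange (fun x => forceN T.chkName x) 94103 390 = true := by decide +kernel

end Cfsg.Agent.Lib.Helper56.Fi24a
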