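import Mathlib
import Cfsg.Agent.Lib.Helper56.TC
import Cfsg.Agent.Lib.Helper56.Fi24a.D
set_option autoImplicit false
set_option maxRecDepth 1000000

namespace Cfsg.Agent.Lib.Helper56.Fi24a

open Cfsg.Agent.Lib.Helper56.TC Cfsg.Agent.Lib.Helper56.TC.Tabs

theorem cN_99113 : allRange (fun x => forceN T.chkName x) 99113 388 = true := by decide +kernel
theorem cN_99501 : allRange (fun x => forceN T.chkName x) 99501 381 = true := by decide +kernel
theorem cN_99882 : allRange (fun x => forceN T.chkName x) 99882 384 = true := by decide +kernel
theorem cN_100266 : allRange (fun x => forceN T.chkName x) 100266 383 = true := by decide +kernel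
theorem cN_100649 : allRange (fun x => forceN T.chkName x) 100649 386 = true := by decide +kernel
theorem cN_101035 : allRange (fun x => forceN T.chkName x) 101035 384 = true := by decide +kernel

end Cfsg.Agent.Lib.Helper56.Fi24a
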