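import Mathlib
import Cfsg.Agent.Lib.Helper56.TC
import Cfsg.Agent.Lib.Helper56.Fi24a.D
set_option autoImplicit false
set_option maxRecDepth 1000000

namespace Cfsg.Agent.Lib.Helper56.Fi24a

open Cfsg.Agent.Lib.Helper56.TC Cfsg.Agent.Lib.Helper56.TC.Tabs

theorem cN_101419 : allRange (fun x => forceN T.chkName x) 101419 390 = true := by decide +kernel
theorem cN_101809 : allRange (fun x => forceN T.chkName x) 101809 383 = true := by decide +kernel
theorem cN_102192 : allRange (fun x => forceN T.chkName x) 102192 382 = true := by decide +kernel
theorem cN_102574 : allRange (fun x => forceN T.chkName x) 102574 379 = true := by decide +kernel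
theorem cN_102953 : allRange (fun x => forceN T.chkName x) 102953 378 = true := by decide +kernel
theorem cN_103331 : allRange (fun x => forceN T.chkName x) 103331 377 = true := by decide +kernel

end Cfsg.Agent.Lib.Helper56.Fi24a
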