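import Mathlib
import Cfsg.Agent.Lib.Helper56.TC
import Cfsg.Agent.Lib.Helper56.Fi24a.D
set_option autoImplicit false
set_option maxRecDepth 1000000

namespace Cfsg.Agent.Lib.Helper56.Fi24a

open Cfsg.Agent.Lib.Helper56.TC Cfsg.Agent.Lib.Helper56.TC.Tabs

theorem cN_110643 : allRange (fun x => forceN T.chkName x) 110643 399 = true := by decide +kernel
theorem cN_111042 : allRange (fun x => forceN T.chkName x) 111042 395 = true := by decide +kernel
theorem cN_111437 : allRange (fun x => forceN T.chkName x) 111437 396 = true := by decide +kernel
theorem cN_111833 : allRange (fun x => forceN T.chkName x) 111833 399 = true := by decide +kernel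
theorem cN_112232 : allRange (fun x => forceN T.chkName x) 112232 396 = true := by decide +kernel
theorem cN_112628 : allRange (fun x => forceN T.chkName x) 112628 391 = true := by decide +kernel

end Cfsg.Agent.Lib.Helper56.Fi24a
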