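import Mathlib
import Cfsg.Agent.Lib.Helper56.TC
import Cfsg.Agent.Lib.Helper56.Fi24a.D
set_option autoImplicit false
set_option maxRecDepth 1000000

namespace Cfsg.Agent.Lib.Helper56.Fi24a

open Cfsg.Agent.Lib.Helper56.TC Cfsg.Agent.Lib.Helper56.TC.Tabs

theorem cN_124534 : allRange (fun x => forceN T.chkName x) 124534 374 = true := by decide +kernel
theorem cN_124908 : allRange (fun x => forceN T.chkName x) 124908 370 = true := by decide +kernel
theorem cN_125278 : allRange (fun x => forceN T.chkName x) 125278 369 = true := by decide +kernel
theorem cN_125647 : allRange (fun x => forceN T.chkName x) 125647 372 = true := by decide +kernel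
theorem cN_126019 : allRange (fun x => forceN T.chkName x) 126019 381 = true := by decide +kernel
theorem cN_126400 : allRange (fun x => forceN T.chkName x) 126400 379 = true := by decide +kernel

end Cfsg.Agent.Lib.Helper56.Fi24a
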