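import Mathlib
import Cfsg.Agent.Lib.Helper56.TC
import Cfsg.Agent.Lib.Helper56.Fi24a.D
set_option autoImplicit false
set_option maxRecDepth 1000000

namespace Cfsg.Agent.Lib.Helper56.Fi24a

open Cfsg.Agent.Lib.Helper56.TC Cfsg.Agent.Lib.Helper56.TC.Tabs

theorem cN_126779 : allRange (fun x => forceN T.chkName x) 126779 397 = true := by decide +kernel
theorem cN_127176 : allRange (fun x => forceN T.chkName x) 127176 395 = true := by decide +kernel
theorem cN_127571 : allRange (fun x => forceN T.chkName x) 127571 386 = true := by decide +kernel
theorem cN_127957 : allRange (fun x => forceN T.chkName x) 127957 387 = true := by decide +kernel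
theorem cN_128344 : allRange (fun x => forceN T.chkName x) 128344 402 = true := by decide +kernel
theorem cN_128746 : allRange (fun x => forceN T.chkName x) 128746 403 = true := by decide +kernel

end Cfsg.Agent.Lib.Helper56.Fi24a
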