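import Mathlib
import Cfsg.Agent.Lib.Helper56.TC
import Cfsg.Agent.Lib.Helper56.Fi24a.D
set_option autoImplicit false
set_option maxRecDepth 1000000

namespace Cfsg.Agent.Lib.Helper56.Fi24a

open Cfsg.Agent.Lib.Helper56.TC Cfsg.Agent.Lib.Helper56.TC.Tabs

theorem cN_133918 : allRange (fun x => forceN T.chkName x) 133918 388 = true := by decide +kernel
theorem cN_134306 : allRange (fun x => forceN T.chkName x) 134306 396 = true := by decide +kernel
theorem cN_134702 : allRange (fun x => forceN T.chkName x) 134702 390 = true := by decide +kernel
theorem cN_135092 : allRange (fun x => forceN T.chkName x) 135092 393 = true := by decide +kernel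
theorem cN_135485 : allRange (fun x => forceN T.chkName x) 135485 386 = true := by decide +kernel
theorem cN_135871 : allRange (fun x => forceN T.chkName x) 135871 401 = true := by decide +kernel

end Cfsg.Agent.Lib.Helper56.Fi24a
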