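import Mathlib
import Cfsg.Agent.Lib.Helper56.TC
import Cfsg.Agent.Lib.Helper56.Fi24a.D
set_option autoImplicit false
set_option maxRecDepth 1000000

namespace Cfsg.Agent.Lib.Helper56.Fi24a

open Cfsg.Agent.Lib.Helper56.TC Cfsg.Agent.Lib.Helper56.TC.Tabs

theorem cN_136272 : allRange (fun x => forceN T.chkName x) 136272 385 = true := by decide +kernel
theorem cN_136657 : allRange (fun x => forceN T.chkName x) 136657 375 = true := by decide +kernel
theorem cN_137032 : allRange (fun x => forceN T.chkName x) 137032 381 = true := by decide +kernel
theorem cN_137413 : allRange (fun x => forceN T.chkName x) 137413 375 = true := by decide +kernel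
theorem cN_137788 : allRange (fun x => forceN T.chkName x) 137788 381 = true := by decide +kernel
theorem cN_138169 : allRange (fun x => forceN T.chkName x) 138169 384 = true := by decide +kernel

end Cfsg.Agent.Lib.Helper56.Fi24a
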