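import Mathlib
import Cfsg.Agent.Lib.Helper56.TC
import Cfsg.Agent.Lib.Helper56.Fi24a.D
set_option autoImplicit false
set_option maxRecDepth 1000000

namespace Cfsg.Agent.Lib.Helper56.Fi24a

open Cfsg.Agent.Lib.Helper56.TC Cfsg.Agent.Lib.Helper56.TC.Tabs

theorem cN_143174 : allRange (fun x => forceN T.chkName x) 143174 380 = true := by decide +kernel
theorem cN_143554 : allRange (fun x => forceN T.chkName x) 143554 375 = true := by decide +kernel
theorem cN_143929 : allRange (fun x => forceN T.chkName x) 143929 381 = true := by decide +kernel
theorem cN_144310 : allRange (fun x => forceN T.chkName x) 144310 376 = true := by decide +kernel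
theorem cN_144686 : allRange (fun x => forceN T.chkName x) 144686 377 = true := by decide +kernel
theorem cN_145063 : allRange (fun x => forceN T.chkName x) 145063 378 = true := by decide +kernel

end Cfsg.Agent.Lib.Helper56.Fi24a
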