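import Mathlib
import Cfsg.Agent.Lib.Helper56.TC
import Cfsg.Agent.Lib.Helper56.Fi24a.D
set_option autoImplicit false
set_option maxRecDepth 1000000

namespace Cfsg.Agent.Lib.Helper56.Fi24a

open Cfsg.Agent.Lib.Helper56.TC Cfsg.Agent.Lib.Helper56.TC.Tabs

theorem cN_145441 : allRange (fun x => forceN T.chkName x) 145441 377 = true := by decide +kernel
theorem cN_145818 : allRange (fun x => forceN T.chkName x) 145818 373 = true := by decide +kernel
theorem cN_146191 : allRange (fun x => forceN T.chkName x) 146191 371 = true := by decide +kernel
theorem cN_146562 : allRange (fun x => forceN T.chkName x) 146562 368 = true := by decide +kernel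
theorem cN_146930 : allRange (fun x => forceN T.chkName x) 146930 368 = true := by decide +kernel
theorem cN_147298 : allRange (fun x => forceN T.chkName x) 147298 381 = true := by decide +kernel

end Cfsg.Agent.Lib.Helper56.Fi24a
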