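import Mathlib
import Cfsg.Agent.Lib.Helper56.TC
import Cfsg.Agent.Lib.Helper56.Fi24a.D
set_option autoImplicit false
set_option maxRecDepth 1000000

namespace Cfsg.Agent.Lib.Helper56.Fi24a

open Cfsg.Agent.Lib.Helper56.TC Cfsg.Agent.Lib.Helper56.TC.Tabs

theorem cN_150029 : allRange (fun x => forceN T.chkName x) 150029 404 = true := by decide +kernel
theorem cN_150433 : allRange (fun x => forceN T.chkName x) 150433 399 = true := by decide +kernel
theorem cN_150832 : allRange (fun x => forceN T.chkName x) 150832 402 = true := by decide +kernel
theorem cN_151234 : allRange (fun x => forceN T.chkName x) 151234 403 = true := by decide +kernel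
theorem cN_151637 : allRange (fun x => forceN T.chkName x) 151637 407 = true := by decide +kernel
theorem cN_152044 : allRange (fun x => forceN T.chkName x) 152044 403 = true := by decide +kernel

end Cfsg.Agent.Lib.Helper56.Fi24a
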