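import Mathlib
import Cfsg.Agent.Lib.Helper56.TC
import Cfsg.Agent.Lib.Helper56.Fi24a.D
set_option autoImplicit false
set_option maxRecDepth 1000000

namespace Cfsg.Agent.Lib.Helper56.Fi24a

open Cfsg.Agent.Lib.Helper56.TC Cfsg.Agent.Lib.Helper56.TC.Tabs

theorem cN_159494 : allRange (fun x => forceN T.chkName x) 159494 378 = true := by decide +kernel
theorem cN_159872 : allRange (fun x => forceN T.chkName x) 159872 380 = true := by decide +kernel
theorem cN_160252 : allRange (fun x => forceN T.chkName x) 160252 388 = true := by decide +kernel
theorem cN_160640 : allRange (fun x => forceN T.chkName x) 160640 391 = true := by decide +kernel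
theorem cN_161031 : allRange (fun x => forceN T.chkName x) 161031 385 = true := by decide +kernel
theorem cN_161416 : allRange (fun x => forceN T.chkName x) 161416 383 = true := by decide +kernel

end Cfsg.Agent.Lib.Helper56.Fi24a
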