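import Mathlib
import Cfsg.Agent.Lib.Helper56.TC
import Cfsg.Agent.Lib.Helper56.Fi24a.D
set_option autoImplicit false
set_option maxRecDepth 1000000

namespace Cfsg.Agent.Lib.Helper56.Fi24a

open Cfsg.Agent.Lib.Helper56.TC Cfsg.Agent.Lib.Helper56.TC.Tabs

theorem cN_166399 : allRange (fun x => forceN T.chkName x) 166399 378 = true := by decide +kernel
theorem cN_166777 : allRange (fun x => forceN T.chkName x) 166777 378 = true := by decide +kernel
theorem cN_167155 : allRange (fun x => forceN T.chkName x) 167155 375 = true := by decide +kernel
theorem cN_167530 : allRange (fun x => forceN T.chkName x) 167530 375 = true := by decide +kernel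
theorem cN_167905 : allRange (fun x => forceN T.chkName x) 167905 375 = true := by decide +kernel
theorem cN_168280 : allRange (fun x => forceN T.chkName x) 168280 374 = true := by decide +kernel

end Cfsg.Agent.Lib.Helper56.Fi24a
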