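import Mathlib
import Cfsg.Agent.Lib.Helper56.TC
import Cfsg.Agent.Lib.Helper56.Fi24a.D
set_option autoImplicit false
set_option maxRecDepth 1000000

namespace Cfsg.Agent.Lib.Helper56.Fi24a

open Cfsg.Agent.Lib.Helper56.TC Cfsg.Agent.Lib.Helper56.TC.Tabs

theorem cN_168654 : allRange (fun x => forceN T.chkName x) 168654 372 = true := by decide +kernel
theorem cN_169026 : allRange (fun x => forceN T.chkName x) 169026 370 = true := by decide +kernel
theorem cN_169396 : allRange (fun x => forceN T.chkName x) 169396 369 = true := by decide +kernel
theorem cN_169765 : allRange (fun x => forceN T.chkName x) 169765 367 = true := by decide +kernel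
theorem cN_170132 : allRange (fun x => forceN T.chkName x) 170132 378 = true := by decide +kernel
theorem cN_170510 : allRange (fun x => forceN T.chkName x) 170510 371 = true := by decide +kernel

end Cfsg.Agent.Lib.Helper56.Fi24a
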