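import Mathlib
import Cfsg.Agent.Lib.Helper56.TC
import Cfsg.Agent.Lib.Helper56.Fi24a.D
set_option autoImplicit false
set_option maxRecDepth 1000000

namespace Cfsg.Agent.Lib.Helper56.Fi24a

open Cfsg.Agent.Lib.Helper56.TC Cfsg.Agent.Lib.Helper56.TC.Tabs

theorem cN_170881 : allRange (fun x => forceN T.chkName x) 170881 402 = true := by decide +kernel
theorem cN_171283 : allRange (fun x => forceN T.chkName x) 171283 395 = true := by decide +kernel
theorem cN_171678 : allRange (fun x => forceN T.chkName x) 171678 390 = true := by decide +kernel
theorem cN_172068 : allRange (fun x => forceN T.chkName x) 172068 396 = true := by decide +kernel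
theorem cN_172464 : allRange (fun x => forceN T.chkName x) 172464 407 = true := by decide +kernel
theorem cN_172871 : allRange (fun x => forceN T.chkName x) 172871 405 = true := by decide +kernel

end Cfsg.Agent.Lib.Helper56.Fi24a
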