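import Mathlib
import Cfsg.Agent.Lib.Helper56.TC
import Cfsg.Agent.Lib.Helper56.Fi24a.D
set_option autoImplicit false
set_option maxRecDepth 1000000

namespace Cfsg.Agent.Lib.Helper56.Fi24a

open Cfsg.Agent.Lib.Helper56.TC Cfsg.Agent.Lib.Helper56.TC.Tabs

theorem cN_178078 : allRange (fun x => forceN T.chkName x) 178078 393 = true := by decide +kernel
theorem cN_178471 : allRange (fun x => forceN T.chkName x) 178471 390 = true := by decide +kernel
theorem cN_178861 : allRange (fun x => forceN T.chkName x) 178861 391 = true := by decide +kernel
theorem cN_179252 : allRange (fun x => forceN T.chkName x) 179252 390 = true := by decide +kernel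
theorem cN_179642 : allRange (fun x => forceN T.chkName x) 179642 395 = true := by decide +kernel
theorem cN_180037 : allRange (fun x => forceN T.chkName x) 180037 388 = true := by decide +kernel

end Cfsg.Agent.Lib.Helper56.Fi24a
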