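import Mathlib
import Cfsg.Agent.Lib.Helper56.TC
import Cfsg.Agent.Lib.Helper56.Fi24a.D
set_option autoImplicit false
set_option maxRecDepth 1000000

namespace Cfsg.Agent.Lib.Helper56.Fi24a

open Cfsg.Agent.Lib.Helper56.TC Cfsg.Agent.Lib.Helper56.TC.Tabs

theorem cN_189652 : allRange (fun x => forceN T.chkName x) 189652 385 = true := by decide +kernel
theorem cN_190037 : allRange (fun x => forceN T.chkName x) 190037 378 = true := by decide +kernel
theorem cN_190415 : allRange (fun x => forceN T.chkName x) 190415 376 = true := by decide +kernel
theorem cN_190791 : allRange (fun x => forceN T.chkName x) 190791 380 = true := by decide +kernel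
theorem cN_191171 : allRange (fun x => forceN T.chkName x) 191171 374 = true := by decide +kernel
theorem cN_191545 : allRange (fun x => forceN T.chkName x) 191545 373 = true := by decide +kernel

end Cfsg.Agent.Lib.Helper56.Fi24a
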