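import Mathlib
import Cfsg.Agent.Lib.Helper56.TC
import Cfsg.Agent.Lib.Helper56.Fi24a.D
set_option autoImplicit false
set_option maxRecDepth 1000000

namespace Cfsg.Agent.Lib.Helper56.Fi24a

open Cfsg.Agent.Lib.Helper56.TC Cfsg.Agent.Lib.Helper56.TC.Tabs

theorem cN_217433 : allRange (fun x => forceN T.chkName x) 217433 370 = true := by decide +kernel
theorem cN_217803 : allRange (fun x => forceN T.chkName x) 217803 371 = true := by decide +kernel
theorem cN_218174 : allRange (fun x => forceN T.chkName x) 218174 370 = true := by decide +kernel
theorem cN_218544 : allRange (fun x => forceN T.chkName x) 218544 368 = true := by decide +kernel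
theorem cN_218912 : allRange (fun x => forceN T.chkName x) 218912 369 = true := by decide +kernel
theorem cN_219281 : allRange (fun x => forceN T.chkName x) 219281 368 = true := by decide +kernel

end Cfsg.Agent.Lib.Helper56.Fi24a
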