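import Mathlib
import Cfsg.Agent.Lib.Helper56.TC
import Cfsg.Agent.Lib.Helper56.Fi24a.D
set_option autoImplicit false
set_option maxRecDepth 1000000

namespace Cfsg.Agent.Lib.Helper56.Fi24a

open Cfsg.Agent.Lib.Helper56.TC Cfsg.Agent.Lib.Helper56.TC.Tabs

theorem cN_221969 : allRange (fun x => forceN T.chkName x) 221969 407 = true := by decide +kernel
theorem cN_222376 : allRange (fun x => forceN T.chkName x) 222376 406 = true := by decide +kernel
theorem cN_222782 : allRange (fun x => forceN T.chkName x) 222782 404 = true := by decide +kernel
theorem cN_223186 : allRange (fun x => forceN T.chkName x) 223186 401 = true := by decide +kernel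
theorem cN_223587 : allRange (fun x => forceN T.chkName x) 223587 402 = true := by decide +kernel
theorem cN_223989 : allRange (fun x => forceN T.chkName x) 223989 405 = true := by decide +kernel

end Cfsg.Agent.Lib.Helper56.Fi24a
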