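import Mathlib
import Cfsg.Agent.Lib.Helper56.TC
import Cfsg.Agent.Lib.Helper56.Fi24a.D
set_option autoImplicit false
set_option maxRecDepth 1000000

namespace Cfsg.Agent.Lib.Helper56.Fi24a

open Cfsg.Agent.Lib.Helper56.TC Cfsg.Agent.Lib.Helper56.TC.Tabs

theorem cN_226799 : allRange (fun x => forceN T.chkName x) 226799 395 = true := by decide +kernel
theorem cN_227194 : allRange (fun x => forceN T.chkName x) 227194 400 = true := by decide +kernel
theorem cN_227594 : allRange (fun x => forceN T.chkName x) 227594 393 = true := by decide +kernel
theorem cN_227987 : allRange (fun x => forceN T.chkName x) 227987 390 = true := by decide +kernel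
theorem cN_228377 : allRange (fun x => forceN T.chkName x) 228377 390 = true := by decide +kernel
theorem cN_228767 : allRange (fun x => forceN T.chkName x) 228767 392 = true := by decide +kernel

end Cfsg.Agent.Lib.Helper56.Fi24a
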